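import Mathlib
import Cfsg.Agent.Lib.Helper51.EA38.Defs
import Cfsg.Agent.Lib.Helper24.ClassTwo
import Cfsg.Agent.Lib.Helper53.PGroups
import Cfsg.Agent.Lib.Helper23.PGroupEA

/-!
# S1338, package (Q1): Alperin's lemma (helper46)

For `p` odd, a maximal normal elementary abelian subgroup `W` of a finite `p`-group contains
every element of order dividing `p` of its centralizer.

Proof (induction on the order of the group): if `x` centralizes `W`, `x ^ p = 1`, `x ∉ W` and `x`
is not central modulo `W`, take a proper normal subgroup `M` containing `W` and `x`; by induction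
`M` has an element `k₁ ∉ W` with `k₁ ^ p = 1`, centralizing `W` and central modulo `W` in `M`.
The elements of `M` centralizing `W` and central modulo `W` in `M` form a normal subgroup of
class at most two (commutators in `W`), so its elements with trivial `p`-th power form a normal
subgroup `Ω` properly containing `W`; a nontrivial central element of `Ω / W` in `P / W` gives
the required element of `P`.
-/

set_option autoImplicit false

namespace Cfsg.Agent.Lib.Helper46.EA38

open Cfsg.Agent.Lib.Helper51.EA38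

universe u

/-- The elements of `M` centralizing `W` and central modulo `W` in `M`. -/
def ctrMod {P : Type u} [Group P] (M W : Subgroup P) (hW : W.Normal) : Subgroup P where
  carrier := {y | y ∈ M ∧ (∀ w ∈ W, y * w = w * y) ∧ ∀ m ∈ M, m * y * m⁻¹ * y⁻¹ ∈ W}
  one_mem' := by
    refine ⟨M.one_mem, fun w _ => by simp, fun m _ => ?_⟩
    have : m * 1 * m⁻¹ * (1 : P)⁻¹ = 1 := by group
    rw [this]
    exact W.one_mem
  mul_mem' := by
    rintro a b ⟨haM, hac, han⟩ ⟨hbM, hbc, hbn⟩
    refine ⟨M.mul_mem haM hbM, fun w hw => ?_, fun m hm => ?_⟩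
    · calc a * b * w = a * (b * w) := by rw [mul_assoc]
        _ = a * (w * b) := by rw [hbc w hw]
        _ = a * w * b := by rw [mul_assoc]
        _ = w * a * b := by rw [hac w hw]
        _ = w * (a * b) := by rw [mul_assoc]
    · have h1 : m * (a * b) * m⁻¹ * (a * b)⁻¹
          = (m * a * m⁻¹ * a⁻¹) * (a * (m * b * m⁻¹ * b⁻¹) * a⁻¹) := by group
      rw [h1]
      exact W.mul_mem (han m hm) (hW.conj_mem _ (hbn m hm) a)
  inv_mem' := by
    rintro a ⟨haM, hac, han⟩
    refine ⟨M.inv_mem haM, fun w hw => ?_, fun m hm => ?_⟩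
    · have h : Commute a w := hac w hw
      exact h.inv_left.eq
    · have h1 : m * a⁻¹ * m⁻¹ * a⁻¹⁻¹ = a⁻¹ * (m * a * m⁻¹ * a⁻¹)⁻¹ * a⁻¹⁻¹ := by group
      rw [h1]
      exact hW.conj_mem _ (W.inv_mem (han m hm)) a⁻¹

theorem mem_ctrMod {P : Type u} [Group P] {M W : Subgroup P} {hW : W.Normal} {y : P} :
    y ∈ ctrMod M W hW ↔
      y ∈ M ∧ (∀ w ∈ W, y * w = w * y) ∧ ∀ m ∈ M, m * y * m⁻¹ * y⁻¹ ∈ W := Iff.rfl

theorem ctrMod_normal {P : Type u} [Group P] (M W : Subgroup P) (hW : W.Normal)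
    (hM : M.Normal) : (ctrMod M W hW).Normal := by
  constructor
  rintro n ⟨hnM, hnc, hnn⟩ g
  refine ⟨hM.conj_mem n hnM g, fun w hw => ?_, fun m hm => ?_⟩
  · have hw' : g⁻¹ * w * g ∈ W := by
      have := hW.conj_mem w hw g⁻¹
      rwa [inv_inv] at this
    have h1 := hnc _ hw'
    calc g * n * g⁻¹ * w = g * (n * (g⁻¹ * w * g)) * g⁻¹ := by group
      _ = g * ((g⁻¹ * w * g) * n) * g⁻¹ := by rw [h1]
      _ = w * (g * n * g⁻¹) := by group
  · have hm' : g⁻¹ * m * g ∈ M := by
      have := hM.conj_mem m hm g⁻¹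
      rwa [inv_inv] at this
    have h1 := hnn _ hm'
    have h2 : m * (g * n * g⁻¹) * m⁻¹ * (g * n * g⁻¹)⁻¹
        = g * ((g⁻¹ * m * g) * n * (g⁻¹ * m * g)⁻¹ * n⁻¹) * g⁻¹ := by group
    rw [h2]
    exact hW.conj_mem _ h1 g

/-- The elements of `ctrMod M W` with trivial `p`-th power (a subgroup for `p` odd, `W` of
exponent `p`). -/
def omegaCtr {P : Type u} [Group P] (p : ℕ) (hp : p.Prime) (hp2 : p ≠ 2) (M W : Subgroup P)
    (hW : W.Normal) (hWe : ∀ w ∈ W, w ^ p = 1) : Subgroup P where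
  carrier := {y | y ∈ ctrMod M W hW ∧ y ^ p = 1}
  one_mem' := ⟨(ctrMod M W hW).one_mem, one_pow p⟩
  mul_mem' := by
    rintro a b ⟨ha, hap⟩ ⟨hb, hbp⟩
    refine ⟨(ctrMod M W hW).mul_mem ha hb, ?_⟩
    obtain ⟨haM, hac, -⟩ := ha
    obtain ⟨-, hbc, hbn⟩ := hb
    have hcW : b⁻¹ * a⁻¹ * b * a ∈ W := by
      have h1 := hbn a⁻¹ (M.inv_mem haM)
      have h2 := hW.conj_mem _ h1 b⁻¹
      have h3 : b⁻¹ * (a⁻¹ * b * a⁻¹⁻¹ * b⁻¹) * b⁻¹⁻¹ = b⁻¹ * a⁻¹ * b * a := by group
      rwa [h3] at h2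
    have hrel : b * a = a * b * (b⁻¹ * a⁻¹ * b * a) := by group
    have hca : Commute (b⁻¹ * a⁻¹ * b * a) a := (hac _ hcW).symm
    have hcb : Commute (b⁻¹ * a⁻¹ * b * a) b := (hbc _ hcW).symm
    rw [Cfsg.Agent.Lib.Helper24.mul_pow_of_central a b _ hrel hca hcb p, hap, hbp, one_mul,
      one_mul]
    have hodd : Odd p := hp.odd_of_ne_two hp2
    have hev : 2 ∣ p - 1 := by
      obtain ⟨k, hk⟩ := hodd
      exact ⟨k, by omega⟩
    rw [Nat.mul_div_assoc p hev, pow_mul, hWe _ hcW, one_pow]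
  inv_mem' := by
    rintro a ⟨ha, hap⟩
    exact ⟨(ctrMod M W hW).inv_mem ha, by rw [inv_pow, hap, inv_one]⟩

theorem mem_omegaCtr {P : Type u} [Group P] {p : ℕ} {hp : p.Prime} {hp2 : p ≠ 2}
    {M W : Subgroup P} {hW : W.Normal} {hWe : ∀ w ∈ W, w ^ p = 1} {y : P} :
    y ∈ omegaCtr p hp hp2 M W hW hWe ↔ y ∈ ctrMod M W hW ∧ y ^ p = 1 := Iff.rfl

theorem omegaCtr_normal {P : Type u} [Group P] (p : ℕ) (hp : p.Prime) (hp2 : p ≠ 2)
    (M W : Subgroup P) (hW : W.Normal) (hWe : ∀ w ∈ W, w ^ p = 1) (hM : M.Normal) :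
    (omegaCtr p hp hp2 M W hW hWe).Normal := by
  constructor
  rintro n ⟨hn, hnp⟩ g
  exact ⟨(ctrMod_normal M W hW hM).conj_mem n hn g, by rw [conj_pow, hnp, mul_one, mul_inv_cancel]⟩

/-- The core of Alperin's lemma: an element of order dividing `p` outside `W` centralizing `W`
can be replaced by one that is moreover central modulo `W`. -/
theorem alperin_core (p : ℕ) [hp : Fact p.Prime] (hp2 : p ≠ 2) :
    ∀ (n : ℕ) (P : Type u) [Group P] [Finite P], Nat.card P = n → IsPGroup p P →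
    ∀ W : Subgroup P, W.Normal → (∀ a ∈ W, a ^ p = 1) →
    ∀ x : P, x ∉ W → x ^ p = 1 → (∀ w ∈ W, x * w = w * x) →
    ∃ k : P, k ∉ W ∧ k ^ p = 1 ∧ (∀ w ∈ W, k * w = w * k) ∧
      ∀ g : P, g * k * g⁻¹ * k⁻¹ ∈ W := by
  intro n
  induction n using Nat.strong_induction_on with
  | _ n ih =>
    intro P _ _ hn hP W hW hWe x hxW hxp hxc
    by_cases hbase : ∀ g : P, g * x * g⁻¹ * x⁻¹ ∈ W
    · exact ⟨x, hxW, hxp, hxc, hbase⟩
    have hH : W ⊔ Subgroup.zpowers x ≠ ⊤ := by
      intro htop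
      apply hbase
      intro g
      have hle : W ⊔ Subgroup.zpowers x ≤ Subgroup.centralizer ({x} : Set P) := by
        refine sup_le ?_ ?_
        · intro w hw
          rw [Subgroup.mem_centralizer_iff]
          intro y hy
          rw [Set.mem_singleton_iff] at hy
          subst hy
          exact hxc w hw
        · rw [Subgroup.zpowers_le, Subgroup.mem_centralizer_iff]
          intro y hy
          rw [Set.mem_singleton_iff] at hy
          subst hy
          rfl
      have hg : g ∈ Subgroup.centralizer ({x} : Set P) := hle (htop ▸ Subgroup.mem_top g)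
      have hgx : x * g = g * x := by
        rw [Subgroup.mem_centralizer_iff] at hg
        exact hg x rfl
      have h1 : g * x * g⁻¹ * x⁻¹ = 1 := by rw [← hgx]; group
      rw [h1]
      exact W.one_mem
    obtain ⟨M, hMco, hHM⟩ := (eq_top_or_exists_le_coatom _).resolve_left hH
    have hnil : Group.IsNilpotent P := hP.isNilpotent
    have hMn : M.Normal :=
      Subgroup.NormalizerCondition.normal_of_coatom M Group.normalizerCondition_of_isNilpotent hMco
    have hWM : W ≤ M := le_sup_left.trans hHM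
    have hxM : x ∈ M := hHM (Subgroup.mem_sup_right (Subgroup.mem_zpowers x))
    have hcard : Nat.card M < n := by
      rw [← hn]
      exact lt_of_le_of_ne M.card_le_card_group (fun h => hMco.1 (M.eq_top_of_card_eq h))
    -- induction hypothesis inside `M`
    have hWMn : (W.subgroupOf M).Normal := inferInstance
    obtain ⟨k1, hk1W, hk1p, hk1c, hk1M⟩ := ih (Nat.card M) hcard M rfl (hP.to_subgroup M)
      (W.subgroupOf M) hWMn
      (fun a ha => by
        have h1 := hWe (a : P) (Subgroup.mem_subgroupOf.mp ha)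
        exact Subtype.ext (by rw [Subgroup.coe_pow, h1]; rfl))
      ⟨x, hxM⟩
      (fun h => hxW (Subgroup.mem_subgroupOf.mp h))
      (Subtype.ext (by rw [Subgroup.coe_pow]; exact hxp))
      (fun w hw => Subtype.ext (by
        rw [Subgroup.coe_mul, Subgroup.coe_mul]
        exact hxc (w : P) (Subgroup.mem_subgroupOf.mp hw)))
    have hk1W' : (k1 : P) ∉ W := fun h => hk1W (Subgroup.mem_subgroupOf.mpr h)
    have hk1p' : (k1 : P) ^ p = 1 := by
      have := congrArg Subtype.val hk1p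
      rwa [Subgroup.coe_pow] at this
    have hk1c' : ∀ w ∈ W, (k1 : P) * w = w * (k1 : P) := by
      intro w hw
      have := congrArg Subtype.val (hk1c ⟨w, hWM hw⟩ (Subgroup.mem_subgroupOf.mpr hw))
      simpa using this
    have hk1M' : ∀ m ∈ M, m * (k1 : P) * m⁻¹ * (k1 : P)⁻¹ ∈ W := by
      intro m hm
      have := Subgroup.mem_subgroupOf.mp (hk1M ⟨m, hm⟩)
      simpa using this
    have hk1Ω : (k1 : P) ∈ omegaCtr p hp.out hp2 M W hW hWe :=
      ⟨⟨k1.2, hk1c', hk1M'⟩, hk1p'⟩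
    have hΩn : (omegaCtr p hp.out hp2 M W hW hWe).Normal :=
      omegaCtr_normal p hp.out hp2 M W hW hWe hMn
    -- a nontrivial central element of the image of `Ω` in `P ⧸ W`
    have hDn : ((omegaCtr p hp.out hp2 M W hW hWe).map (QuotientGroup.mk' W)).Normal :=
      Subgroup.Normal.map hΩn (QuotientGroup.mk' W) (QuotientGroup.mk'_surjective W)
    have hDne : (omegaCtr p hp.out hp2 M W hW hWe).map (QuotientGroup.mk' W) ≠ ⊥ := by
      intro h
      have h1 : QuotientGroup.mk' W (k1 : P) ∈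
          (omegaCtr p hp.out hp2 M W hW hWe).map (QuotientGroup.mk' W) :=
        Subgroup.mem_map_of_mem _ hk1Ω
      rw [h, Subgroup.mem_bot] at h1
      exact hk1W' ((QuotientGroup.eq_one_iff _).mp h1)
    have hPq : IsPGroup p (P ⧸ W) := hP.to_quotient W
    obtain ⟨z, hzD, hz1, hzc⟩ :=
      Cfsg.Agent.Lib.Helper53.exists_mem_center_of_normal_of_ne_bot hPq _ hDne
    obtain ⟨k, hkΩ, rfl⟩ := Subgroup.mem_map.mp hzD
    refine ⟨k, fun hkW => hz1 ((QuotientGroup.eq_one_iff k).mpr hkW), hkΩ.2, hkΩ.1.2.1, ?_⟩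
    intro g
    rw [← QuotientGroup.eq_one_iff]
    have h1 := Subgroup.mem_center_iff.mp hzc (QuotientGroup.mk' W g)
    have h2 : ((g * k * g⁻¹ * k⁻¹ : P) : P ⧸ W)
        = QuotientGroup.mk' W g * QuotientGroup.mk' W k * (QuotientGroup.mk' W g)⁻¹
          * (QuotientGroup.mk' W k)⁻¹ := rfl
    rw [h2, h1]
    group

/-- (Q1) Alperin's lemma. -/
theorem lemAlperin : LemAlperin.{u} := by
  intro P _ _ p _ hp2 hP W hW hEA hmax x hxc hxp
  by_contra hxW
  obtain ⟨k, hkW, hkp, hkc, hkn⟩ :=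
    alperin_core p hp2 (Nat.card P) P rfl hP W hW hEA.2 x hxW hxp hxc
  have hEAk : Cfsg.IsElementaryAbelian p (Subgroup.zpowers k) := by
    refine ⟨inferInstance, ?_⟩
    intro a ha
    obtain ⟨i, rfl⟩ := Subgroup.mem_zpowers_iff.mp ha
    rw [← zpow_natCast, ← zpow_mul, mul_comm, zpow_mul, zpow_natCast, hkp, one_zpow]
  have hcomm : ∀ a ∈ W, ∀ b ∈ Subgroup.zpowers k, a * b = b * a := by
    intro a ha b hb
    obtain ⟨i, rfl⟩ := Subgroup.mem_zpowers_iff.mp hb
    have h : Commute k a := hkc a ha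
    exact (h.zpow_left i).eq.symm
  have hW' : Cfsg.IsElementaryAbelian p (W ⊔ Subgroup.zpowers k) :=
    Cfsg.Agent.Lib.Helper23.isEA_sup hEA hEAk hcomm
  have hW'n : (W ⊔ Subgroup.zpowers k).Normal := by
    constructor
    intro n hn g
    have hle : W ⊔ Subgroup.zpowers k ≤
        (W ⊔ Subgroup.zpowers k).comap (MulAut.conj g).toMonoidHom := by
      refine sup_le ?_ ?_
      · intro w hw
        rw [Subgroup.mem_comap]
        exact Subgroup.mem_sup_left (hW.conj_mem w hw g)
      · rw [Subgroup.zpowers_le, Subgroup.mem_comap]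
        have h1 : (MulAut.conj g).toMonoidHom k = (g * k * g⁻¹ * k⁻¹) * k := by
          simp [MulAut.conj_apply]
        rw [h1]
        exact Subgroup.mul_mem _ (Subgroup.mem_sup_left (hkn g))
          (Subgroup.mem_sup_right (Subgroup.mem_zpowers k))
    have h2 := hle hn
    rw [Subgroup.mem_comap] at h2
    simpa [MulAut.conj_apply] using h2
  have h3 := hmax _ hW'n hW' le_sup_left
  exact hkW (h3 ▸ Subgroup.mem_sup_right (Subgroup.mem_zpowers k))

end Cfsg.Agent.Lib.Helper46.EA38
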